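import Mathlib
import Cfsg.Agent.Lib.Classical.SLVec
import Cfsg.Agent.Lib.Transv.Conj

/-! `PSL₃(4)`: no element of order six. -/

set_option autoImplicit false

namespace Cfsg.Agent.Lib.Psl34

open Matrix

variable {K : Type*} [Field K] [Fintype K]

theorem two_eq_zero (hK : Fintype.card K = 4) : (2 : K) = 0 := by
  obtain ⟨p, hp⟩ := CharP.exists K
  haveI := hp
  obtain ⟨m, hprime, hpm⟩ := FiniteField.card K p
  have h1 : p ∣ 4 := by
    rw [← hK, hpm]
    exact dvd_pow_self p m.ne_zero
  have h2 : p = 2 := by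
    have h3 : p ∣ 2 ^ 2 := by simpa using h1
    exact (Nat.prime_dvd_prime_iff_eq hprime Nat.prime_two).1 (hprime.dvd_of_dvd_pow h3)
  have h3 := CharP.cast_eq_zero K p
  rw [h2] at h3
  exact_mod_cast h3

theorem pow_three_eq_one (hK : Fintype.card K = 4) {a : K} (ha : a ≠ 0) : a ^ 3 = 1 := by
  have := FiniteField.pow_card_sub_one_eq_one a ha
  rwa [hK] at this

/-- An upper triangular matrix with equal outer diagonal entries, determinant one and scalar cube is scalar. -/
theorem scalar_of_triangular (hK : Fintype.card K = 4) (Y : Matrix (Fin 3) (Fin 3) K)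
    (h10 : Y 1 0 = 0) (h20 : Y 2 0 = 0) (h21 : Y 2 1 = 0) (h00 : Y 0 0 = Y 2 2) (hdet : Y.det = 1) (c : K)
    (hc : Y * Y * Y = c • 1) : ∃ l : K, Y = l • 1 := by
  have h2 := two_eq_zero hK
  have hd := hdet
  rw [Matrix.det_fin_three, h10, h20, h21, ← h00] at hd
  have hd' : Y 0 0 * Y 1 1 * Y 0 0 = 1 := by linear_combination hd
  have hl : Y 0 0 ≠ 0 := by
    intro h0
    rw [h0] at hd'
    simp at hd'
  have hl3 := pow_three_eq_one hK hl
  have hμ : Y 1 1 = Y 0 0 := by
    have h3 : (Y 0 0) ^ 2 * (Y 1 1 - Y 0 0) = 0 := by linear_combination hd' - hl3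
    have h4 := (mul_eq_zero.1 h3).resolve_left (pow_ne_zero 2 hl)
    exact sub_eq_zero.1 h4
  have hentry : ∀ i j, (Y * Y * Y) i j = (c • (1 : Matrix (Fin 3) (Fin 3) K)) i j := fun i j => by rw [hc]
  have e01 := hentry 0 1
  have e12 := hentry 1 2
  have e02 := hentry 0 2
  simp only [Matrix.mul_apply, Fin.sum_univ_three, Matrix.smul_apply, smul_eq_mul, h10, h20, h21, hμ, ← h00] at e01 e12 e02
  simp at e01 e12 e02
  have hr : Y 0 1 = 0 := by
    have h3 : (Y 0 0) ^ 2 * Y 0 1 = 0 := by linear_combination e01 - (Y 0 0) ^ 2 * Y 0 1 * h2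
    exact (mul_eq_zero.1 h3).resolve_left (pow_ne_zero 2 hl)
  have ht : Y 1 2 = 0 := by
    have h3 : (Y 0 0) ^ 2 * Y 1 2 = 0 := by linear_combination e12 - (Y 0 0) ^ 2 * Y 1 2 * h2
    exact (mul_eq_zero.1 h3).resolve_left (pow_ne_zero 2 hl)
  have hs : Y 0 2 = 0 := by
    rw [hr, ht] at e02
    have h3 : (Y 0 0) ^ 2 * Y 0 2 = 0 := by linear_combination e02 - (Y 0 0) ^ 2 * Y 0 2 * h2
    exact (mul_eq_zero.1 h3).resolve_left (pow_ne_zero 2 hl)
  refine ⟨Y 0 0, ?_⟩
  ext i j
  fin_cases i <;> fin_cases j <;> simp [Matrix.smul_apply, h10, h20, h21, hμ, hr, ht, hs, ← h00]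

/-- A matrix commuting with a nonzero matrix of square zero, of determinant one and with scalar cube, is scalar. -/
theorem scalar_of_commute_sq_zero (hK : Fintype.card K = 4) (y N : Matrix (Fin 3) (Fin 3) K)
    (hyN : y * N = N * y) (hN0 : N ≠ 0) (hN2 : N * N = 0) (hdet : y.det = 1) (c : K)
    (hc : y * y * y = c • 1) : ∃ l : K, y = l • 1 := by
  classical
  -- rank one
  have hrank : N.rank = 1 := by
    have h1 : N.rank + N.rank ≤ 3 := by
      have := Matrix.rank_add_rank_le_card_of_mul_eq_zero hN2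
      simpa using this
    have h2 : N.rank ≠ 0 := by
      intro h0
      apply hN0
      have h3 : LinearMap.range N.mulVecLin = ⊥ := Submodule.finrank_eq_zero.1 h0
      have h4 : N.mulVecLin = 0 := LinearMap.range_eq_bot.1 h3
      ext p q
      have h5 := congrFun (LinearMap.congr_fun h4 (Pi.single q 1)) p
      simpa using h5
    omega
  obtain ⟨a, b, ha0, hb0, rfl⟩ := Cfsg.Agent.Lib.Classical.exists_vecMulVec_of_rank_one hrank
  obtain ⟨i, hi⟩ : ∃ i, b i ≠ 0 := by
    by_contra hcon
    push Not at hcon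
    exact hb0 (funext hcon)
  obtain ⟨k, hk⟩ : ∃ k, a k ≠ 0 := by
    by_contra hcon
    push Not at hcon
    exact ha0 (funext hcon)
  have hba : b ⬝ᵥ a = 0 := by
    have h1 := congrFun (congrFun hN2 k) i
    simp only [Matrix.mul_apply, Matrix.vecMulVec_apply, Matrix.zero_apply] at h1
    have h2 : ∑ x, a k * b x * (a x * b i) = a k * b i * (b ⬝ᵥ a) := by
      simp only [dotProduct, Finset.mul_sum]
      apply Finset.sum_congr rfl
      intro x _
      ring
    rw [h2] at h1
    exact (mul_eq_zero.1 h1).resolve_left (mul_ne_zero hk hi)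
  have hcomm : ∀ p q, (y.mulVec a) p * b q = a p * (b ᵥ* y) q := by
    intro p q
    have h1 := congrFun (congrFun hyN p) q
    simp only [Matrix.mul_apply, Matrix.vecMulVec_apply] at h1
    have h2 : (y.mulVec a) p * b q = ∑ x, y p x * (a x * b q) := by
      simp only [Matrix.mulVec, dotProduct, Finset.sum_mul]
      apply Finset.sum_congr rfl
      intro x _
      ring
    have h3 : a p * (b ᵥ* y) q = ∑ x, a p * b x * y x q := by
      simp only [Matrix.vecMul, dotProduct, Finset.mul_sum]
      apply Finset.sum_congr rfl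
      intro x _
      ring
    rw [h2, h3, h1]
  set l := (b ᵥ* y) i / b i with hl
  have hya : y.mulVec a = l • a := by
    funext p
    have h1 := hcomm p i
    simp only [Pi.smul_apply, smul_eq_mul, hl]
    field_simp
    linear_combination h1
  have hby : b ᵥ* y = l • b := by
    funext q
    have h1 := hcomm k q
    rw [hya] at h1
    simp only [Pi.smul_apply, smul_eq_mul] at h1 ⊢
    have h2 : a k * ((b ᵥ* y) q - l * b q) = 0 := by linear_combination -h1
    exact sub_eq_zero.1 ((mul_eq_zero.1 h2).resolve_left hk)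
  -- the frame
  let bL : (Fin 3 → K) →ₗ[K] K :=
    LinearMap.mk₂ K (fun u v : Fin 3 → K => u ⬝ᵥ v) (by intros; simp [add_dotProduct]) (by intros; simp [smul_dotProduct])
      (by intros; simp [dotProduct_add]) (by intros; simp [dotProduct_smul]) b
  have hbL : ∀ v, bL v = b ⬝ᵥ v := fun v => rfl
  have hbL0 : bL ≠ 0 := by
    intro h0
    apply hb0
    funext j
    have h1 := LinearMap.congr_fun h0 (Pi.single j 1)
    rw [hbL] at h1
    simpa using h1
  obtain ⟨ψ, w, hψa, hψw, hbw⟩ := Cfsg.Agent.Lib.Transv.exists_frame ha0 hbL0 (by rw [hbL]; exact hba)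
  -- a vector in the common kernel
  obtain ⟨d, hd0, hdψ, hdb⟩ : ∃ d : Fin 3 → K, d ≠ 0 ∧ ψ d = 0 ∧ bL d = 0 := by
    have h1 : Module.finrank K (K × K) < Module.finrank K (Fin 3 → K) := by simp
    have h2 := LinearMap.ker_ne_bot_of_finrank_lt (f := ψ.prod bL) h1
    obtain ⟨d, hd, hd0⟩ := Submodule.exists_mem_ne_zero_of_ne_bot h2
    rw [LinearMap.mem_ker] at hd
    have hd2 : (ψ d, bL d) = 0 := hd
    exact ⟨d, hd0, congrArg Prod.fst hd2, congrArg Prod.snd hd2⟩
  let v : Fin 3 → (Fin 3 → K) := ![a, d, w]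
  have hv : LinearIndependent K v := by
    rw [Fintype.linearIndependent_iff]
    intro g hg
    rw [Fin.sum_univ_three] at hg
    simp only [v, Matrix.cons_val_zero, Matrix.cons_val_one, Matrix.cons_val] at hg
    have e2 := congrArg bL hg
    simp only [map_add, map_smul, smul_eq_mul, hdb, hbw, map_zero, mul_zero, mul_one, hbL a] at e2
    have hba' : b ⬝ᵥ a = 0 := hba
    rw [hba', mul_zero, zero_add, zero_add] at e2
    have e1 := congrArg ψ hg
    simp only [map_add, map_smul, smul_eq_mul, hdψ, hψw, hψa, map_zero, mul_zero, mul_one, add_zero] at e1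
    have e3 : g 1 • d = 0 := by
      simpa [e1, e2] using hg
    have e4 := (smul_eq_zero.1 e3).resolve_right hd0
    intro j
    fin_cases j
    · exact e1
    · exact e4
    · exact e2
  let B : Module.Basis (Fin 3) K (Fin 3 → K) := basisOfLinearIndependentOfCardEqFinrank hv (by simp)
  have hB : ∀ j, B j = v j := fun j => by simp [B]
  let T : Module.End K (Fin 3 → K) := Matrix.toLin' y
  let Y : Matrix (Fin 3) (Fin 3) K := LinearMap.toMatrix B B T
  have hYdet : Y.det = 1 := by
    have h1 : Y.det = LinearMap.det T := LinearMap.det_toMatrix B T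
    rw [h1]
    show LinearMap.det (Matrix.toLin' y) = 1
    rw [LinearMap.det_toLin', hdet]
  have hYent : ∀ i j, Y i j = B.repr (T (B j)) i := fun i j => LinearMap.toMatrix_apply _ _ _ _ _
  have hTa : T a = l • a := hya
  have hb2 : ∀ u, B.repr u 2 = b ⬝ᵥ u := by
    intro u
    have h1 : ∀ u, (B.coord 2) u = bL u := by
      intro u
      have h2 : B.coord 2 = bL := by
        apply B.ext
        intro j
        rw [Module.Basis.coord_apply, Module.Basis.repr_self, hB, hbL]
        have hd' : b ⬝ᵥ d = 0 := hdb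
        have hw' : b ⬝ᵥ w = 1 := hbw
        fin_cases j
        · simp [v, hba]
        · simp [v, hd']
        · simp [v, hw']
      rw [h2]
    exact h1 u
  have hbT : ∀ u, b ⬝ᵥ (T u) = l * (b ⬝ᵥ u) := by
    intro u
    show b ⬝ᵥ (y.mulVec u) = _
    rw [Matrix.dotProduct_mulVec, hby, smul_dotProduct, smul_eq_mul]
  have hB0 : B 0 = a := by rw [hB]; rfl
  have hB1 : B 1 = d := by rw [hB]; rfl
  have hB2 : B 2 = w := by rw [hB]; rfl
  have hrepr0 : ∀ i, B.repr (T (B 0)) i = l * (if i = 0 then 1 else 0) := by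
    intro i
    rw [hB0, hTa, map_smul, ← hB0, Module.Basis.repr_self]
    simp [Finsupp.single_apply, eq_comm]
  have h10 : Y 1 0 = 0 := by rw [hYent, hrepr0]; simp
  have h20 : Y 2 0 = 0 := by rw [hYent, hrepr0]; simp
  have h00 : Y 0 0 = l := by rw [hYent, hrepr0]; simp
  have h21 : Y 2 1 = 0 := by
    rw [hYent, hb2, hbT, hB1]
    have : b ⬝ᵥ d = 0 := hdb
    rw [this, mul_zero]
  have h22 : Y 2 2 = l := by
    rw [hYent, hb2, hbT, hB2]
    have : b ⬝ᵥ w = 1 := hbw
    rw [this, mul_one]
  have hY3 : Y * Y * Y = c • 1 := by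
    have h1 : (T * T * T) = c • (1 : Module.End K (Fin 3 → K)) := by
      have h0 : T * T * T = Matrix.toLin' (y * y * y) := by
        rw [Matrix.toLin'_mul, Matrix.toLin'_mul]
        rfl
      rw [h0, hc, map_smul, Matrix.toLin'_one]
      rfl
    have h2 : Y * Y * Y = LinearMap.toMatrix B B (T * T * T) := by
      show LinearMap.toMatrix B B T * LinearMap.toMatrix B B T * LinearMap.toMatrix B B T = _
      rw [← LinearMap.toMatrix_mul, ← LinearMap.toMatrix_mul]
    rw [h2, h1, map_smul]
    congr 1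
    exact LinearMap.toMatrix_one B
  obtain ⟨l', hl'⟩ := scalar_of_triangular hK Y h10 h20 h21 (by rw [h00, h22]) hYdet c hY3
  refine ⟨l', ?_⟩
  have h3 : T = l' • (1 : Module.End K (Fin 3 → K)) := by
    apply (LinearMap.toMatrix B B).injective
    rw [map_smul]
    show Y = _
    rw [hl']
    congr 1
    exact (LinearMap.toMatrix_one B).symm
  apply Matrix.toLin'.injective
  rw [map_smul, Matrix.toLin'_one]
  exact h3

/-- `PSL₃(4)` has no element of order six. -/
theorem orderOf_ne_six (hK : Fintype.card K = 4) (x : Matrix.ProjectiveSpecialLinearGroup (Fin 3) K) :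
    orderOf x ≠ 6 := by
  classical
  intro h6
  have h2 := two_eq_zero hK
  obtain ⟨g, rfl⟩ := QuotientGroup.mk_surjective x
  -- `g^k` scalar of determinant one forces `x^k = 1`
  have hscal : ∀ (k : ℕ) (l : K), (((g ^ k : Matrix.SpecialLinearGroup (Fin 3) K) : Matrix (Fin 3) (Fin 3) K) = l • 1) →
      (QuotientGroup.mk g : Matrix.ProjectiveSpecialLinearGroup (Fin 3) K) ^ k = 1 := by
    intro k l hl
    have h1 : (g ^ k) ∈ Subgroup.center (Matrix.SpecialLinearGroup (Fin 3) K) := by
      rw [Matrix.SpecialLinearGroup.mem_center_iff]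
      refine ⟨l, ?_, ?_⟩
      · have h3 := (g ^ k).2
        have h4 : (((g ^ k : Matrix.SpecialLinearGroup (Fin 3) K) : Matrix (Fin 3) (Fin 3) K)).det = 1 := h3
        rw [hl, Matrix.det_smul, Matrix.det_one, mul_one] at h4
        simpa using h4
      · rw [hl]
        ext i j
        simp [Matrix.scalar_apply, Matrix.smul_apply, Matrix.one_apply, Matrix.diagonal_apply]
    rw [← QuotientGroup.mk_pow]
    exact (QuotientGroup.eq_one_iff _).2 h1
  have hg6 : g ^ 6 ∈ Subgroup.center (Matrix.SpecialLinearGroup (Fin 3) K) := by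
    apply (QuotientGroup.eq_one_iff _).1
    rw [QuotientGroup.mk_pow, ← h6, pow_orderOf_eq_one]
  obtain ⟨r, hr3, hr⟩ := Matrix.SpecialLinearGroup.mem_center_iff.1 hg6
  have hr3' : r ^ 3 = 1 := by simpa using hr3
  have hr0 : r ≠ 0 := by
    rintro rfl
    simp at hr3'
  set G : Matrix (Fin 3) (Fin 3) K := (g : Matrix (Fin 3) (Fin 3) K) with hG
  have hGpow : ∀ k : ℕ, G ^ k = ((g ^ k : Matrix.SpecialLinearGroup (Fin 3) K) : Matrix (Fin 3) (Fin 3) K) := by
    intro k
    rw [Matrix.SpecialLinearGroup.coe_pow]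
  have hG6 : G ^ 6 = r • 1 := by
    rw [hGpow, ← hr]
    ext i j
    simp [Matrix.scalar_apply, Matrix.smul_apply, Matrix.one_apply, Matrix.diagonal_apply]
  set U := G ^ 3 with hU
  set y := G ^ 2 with hy
  have hUU : U * U = r • 1 := by
    rw [hU, ← pow_add]
    exact hG6
  have hyyy : y * y * y = r • 1 := by
    rw [hy, ← pow_add, ← pow_add]
    exact hG6
  have hyU : y * U = U * y := by
    rw [hy, hU, ← pow_add, ← pow_add, add_comm]
  set d := r ^ 2 with hd
  have hd0 : d ≠ 0 := pow_ne_zero 2 hr0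
  have hd2 : d ^ 2 = r := by
    rw [hd, ← pow_mul]
    calc r ^ (2 * 2) = r ^ 3 * r := by ring
      _ = r := by rw [hr3', one_mul]
  set N := d⁻¹ • U - 1 with hN
  have hN2 : N * N = 0 := by
    set a := d⁻¹ • U with ha
    have h1 : N * N = a * a - (a + a) + 1 := by
      rw [hN]
      noncomm_ring
    have h3 : a * a = 1 := by
      rw [ha, smul_mul_smul_comm, hUU, smul_smul]
      have h4 : d⁻¹ * d⁻¹ * r = 1 := by
        rw [← pow_two, inv_pow, hd2]
        exact inv_mul_cancel₀ hr0
      rw [h4, one_smul]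
    have h4 : a + a = 0 := by
      rw [← two_smul K a, h2, zero_smul]
    rw [h1, h3, h4, sub_zero, one_add_one_eq_two]
    have h5 : (2 : Matrix (Fin 3) (Fin 3) K) = (2 : K) • 1 := by
      rw [two_smul, one_add_one_eq_two]
    rw [h5, h2, zero_smul]
  have hN0 : N ≠ 0 := by
    intro h0
    have h1 : U = d • 1 := by
      have h3 : d⁻¹ • U = 1 := sub_eq_zero.1 h0
      calc U = d • (d⁻¹ • U) := by rw [smul_smul, mul_inv_cancel₀ hd0, one_smul]
        _ = d • 1 := by rw [h3]
    have h3 := hscal 3 d (by rw [← hGpow]; exact h1)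
    have h4 := orderOf_dvd_of_pow_eq_one h3
    rw [h6] at h4
    omega
  have hyN : y * N = N * y := by
    rw [hN, mul_sub, sub_mul, mul_one, one_mul, mul_smul_comm, smul_mul_assoc, hyU]
  have hdet : y.det = 1 := by
    rw [hy, Matrix.det_pow, hG, g.2, one_pow]
  obtain ⟨l, hl⟩ := scalar_of_commute_sq_zero hK y N hyN hN0 hN2 hdet r hyyy
  have h3 := hscal 2 l (by rw [← hGpow]; exact hl)
  have h4 := orderOf_dvd_of_pow_eq_one h3
  rw [h6] at h4
  omega

end Cfsg.Agent.Lib.Psl34
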