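/-
Stem extensions and a Schur cover: every finite stem extension is a quotient of a cover (helper18).
-/
import Mathlib
import Cfsg.Prelude.Def_KGroupFacts

set_option autoImplicit false

namespace Cfsg.Agent.Lib.Psl34.Cover

open Subgroup
open scoped commutatorElement

section Comm
variable {H : Type*} [Group H]

theorem comm_central {a b c d : H} (hc : c ∈ center H) (hd : d ∈ center H) : ⁅a * c, b * d⁆ = ⁅a, b⁆ := by
  have h1 : ∀ z, z * c = c * z := fun z => (mem_center_iff.mp hc z)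
  have h2 : ∀ z, z * d = d * z := fun z => (mem_center_iff.mp hd z)
  have h1' : ∀ z, z * c⁻¹ = c⁻¹ * z := fun z => (mem_center_iff.mp (inv_mem hc) z)
  have h2' : ∀ z, z * d⁻¹ = d⁻¹ * z := fun z => (mem_center_iff.mp (inv_mem hd) z)
  simp only [commutatorElement_def, _root_.mul_inv_rev]
  calc a * c * (b * d) * (c⁻¹ * a⁻¹) * (d⁻¹ * b⁻¹)
      = a * (c * b) * d * c⁻¹ * a⁻¹ * d⁻¹ * b⁻¹ := by group
    _ = a * (b * c) * d * c⁻¹ * a⁻¹ * d⁻¹ * b⁻¹ := by rw [← h1 b]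
    _ = a * b * (c * d * c⁻¹) * a⁻¹ * d⁻¹ * b⁻¹ := by group
    _ = a * b * (d * c * c⁻¹) * a⁻¹ * d⁻¹ * b⁻¹ := by rw [h2 c]
    _ = a * b * d * a⁻¹ * d⁻¹ * b⁻¹ := by group
    _ = a * b * (d * a⁻¹) * d⁻¹ * b⁻¹ := by group
    _ = a * b * (a⁻¹ * d) * d⁻¹ * b⁻¹ := by rw [← h2 a⁻¹]
    _ = a * b * a⁻¹ * b⁻¹ := by group

end Comm

variable {Γ L G : Type} [Group Γ] [Group L] [Group G]

/-- The pullback of two homomorphisms. -/
def pb (σ : Γ →* G) (τ : L →* G) : Subgroup (Γ × L) :=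
  MonoidHom.eqLocus (σ.comp (MonoidHom.fst Γ L)) (τ.comp (MonoidHom.snd Γ L))

theorem mem_pb {σ : Γ →* G} {τ : L →* G} {x : Γ × L} : x ∈ pb σ τ ↔ σ x.1 = τ x.2 := Iff.rfl

/-- The derived subgroup of the pullback. -/
def dr (σ : Γ →* G) (τ : L →* G) : Subgroup (Γ × L) := ⁅pb σ τ, pb σ τ⁆

theorem dr_le (σ : Γ →* G) (τ : L →* G) : dr σ τ ≤ pb σ τ := commutator_le_self _

theorem map_fst_pb {σ : Γ →* G} {τ : L →* G} (hτ : Function.Surjective τ) :
    (pb σ τ).map (MonoidHom.fst Γ L) = ⊤ := by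
  rw [eq_top_iff]
  intro x _
  obtain ⟨y, hy⟩ := hτ (σ x)
  exact ⟨(x, y), mem_pb.mpr hy.symm, rfl⟩

theorem map_snd_pb {σ : Γ →* G} {τ : L →* G} (hσ : Function.Surjective σ) :
    (pb σ τ).map (MonoidHom.snd Γ L) = ⊤ := by
  rw [eq_top_iff]
  intro y _
  obtain ⟨x, hx⟩ := hσ (τ y)
  exact ⟨(x, y), mem_pb.mpr hx, rfl⟩

theorem map_fst_dr {σ : Γ →* G} {τ : L →* G} (hτ : Function.Surjective τ)
    (hΓ : ⁅(⊤ : Subgroup Γ), (⊤ : Subgroup Γ)⁆ = ⊤) : (dr σ τ).map (MonoidHom.fst Γ L) = ⊤ := by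
  rw [dr, map_commutator, map_fst_pb hτ, hΓ]

theorem map_snd_dr {σ : Γ →* G} {τ : L →* G} (hσ : Function.Surjective σ)
    (hL : ⁅(⊤ : Subgroup L), (⊤ : Subgroup L)⁆ = ⊤) : (dr σ τ).map (MonoidHom.snd Γ L) = ⊤ := by
  rw [dr, map_commutator, map_snd_pb hσ, hL]

theorem dr_perfect {σ : Γ →* G} {τ : L →* G} (hτ : Function.Surjective τ) (hτc : τ.ker ≤ center L)
    (hΓ : ⁅(⊤ : Subgroup Γ), (⊤ : Subgroup Γ)⁆ = ⊤) : ⁅dr σ τ, dr σ τ⁆ = dr σ τ := by
  set D := dr σ τ with hD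
  have hDD : ⁅D, D⁆ ≤ D := commutator_le_self _
  have h1 : (⁅D, D⁆ : Subgroup (Γ × L)).map (MonoidHom.fst Γ L) = ⊤ := by
    rw [map_commutator, hD, map_fst_dr hτ hΓ, hΓ]
  have h2 : ∀ p ∈ pb σ τ, ∃ q ∈ ⁅D, D⁆, ∃ c ∈ center L, p = q * ((1 : Γ), c) := by
    intro p hp
    have hx : p.1 ∈ (⁅D, D⁆ : Subgroup (Γ × L)).map (MonoidHom.fst Γ L) := by rw [h1]; trivial
    obtain ⟨q, hq, hq1⟩ := hx
    have hq1' : q.1 = p.1 := hq1
    have hqp : q ∈ pb σ τ := dr_le σ τ (hDD hq)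
    refine ⟨q, hq, q.2⁻¹ * p.2, hτc ?_, ?_⟩
    · rw [MonoidHom.mem_ker, map_mul, map_inv, ← mem_pb.mp hqp, ← mem_pb.mp hp, hq1', inv_mul_cancel]
    · apply Prod.ext
      · simp [hq1']
      · simp
  apply le_antisymm hDD
  rw [hD, dr, commutator_le]
  intro p₁ hp₁ p₂ hp₂
  obtain ⟨q₁, hq₁, c₁, hc₁, rfl⟩ := h2 p₁ hp₁
  obtain ⟨q₂, hq₂, c₂, hc₂, rfl⟩ := h2 p₂ hp₂
  have hcc : ∀ c ∈ center L, ((1 : Γ), c) ∈ center (Γ × L) := by
    intro c hc
    rw [mem_center_iff]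
    intro z
    apply Prod.ext
    · simp
    · exact mem_center_iff.mp hc z.2
  rw [comm_central (hcc c₁ hc₁) (hcc c₂ hc₂)]
  exact commutator_mem_commutator (hDD hq₁) (hDD hq₂)

/-- The map of the derived subgroup of the pullback to the base. -/
def rhoD (σ : Γ →* G) (τ : L →* G) : ↥(dr σ τ) →* G :=
  σ.comp ((MonoidHom.fst Γ L).comp (dr σ τ).subtype)

theorem rhoD_stem {σ : Γ →* G} {τ : L →* G} (hσ : Function.Surjective σ) (hσc : σ.ker ≤ center Γ)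
    (hτ : Function.Surjective τ) (hτc : τ.ker ≤ center L)
    (hΓ : ⁅(⊤ : Subgroup Γ), (⊤ : Subgroup Γ)⁆ = ⊤) : Cfsg.IsStemExtension (rhoD σ τ) := by
  refine ⟨?_, ?_, ?_⟩
  · intro g
    obtain ⟨x, rfl⟩ := hσ g
    have hx : x ∈ (dr σ τ).map (MonoidHom.fst Γ L) := by rw [map_fst_dr hτ hΓ]; trivial
    obtain ⟨d, hd, hd1⟩ := hx
    refine ⟨⟨d, hd⟩, ?_⟩
    show σ d.1 = σ x
    rw [show d.1 = x from hd1]
  · intro d hd
    have h1 : σ d.1.1 = 1 := hd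
    have h2 : τ d.1.2 = 1 := by
      rw [← mem_pb.mp (dr_le σ τ d.2)]
      exact h1
    rw [mem_center_iff]
    intro z
    apply Subtype.ext
    apply Prod.ext
    · exact mem_center_iff.mp (hσc h1) z.1.1
    · exact mem_center_iff.mp (hτc h2) z.1.2
  · have : commutator ↥(dr σ τ) = ⊤ := by
      apply map_injective (dr σ τ).subtype_injective
      rw [map_subtype_commutator, dr_perfect hτ hτc hΓ, ← MonoidHom.range_eq_map, range_subtype]
    rw [this]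
    exact le_top

theorem card_eq_of_surj {X Y : Type*} [Group X] [Group Y] [Finite X] (f : X →* Y) (hf : Function.Surjective f) :
    Nat.card X = Nat.card f.ker * Nat.card Y := by
  have h1 := Subgroup.card_mul_index f.ker
  rw [Subgroup.index_ker, MonoidHom.range_eq_top.mpr hf, Subgroup.card_top] at h1
  exact h1.symm

/-- A perfect stem extension is a quotient of a cover. -/
theorem exists_cover {A : Type} [CommGroup A] [Finite A] [Finite Γ] [Finite L] [Finite G]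
    (hS : ∀ (X : Type) [Group X] [Finite X] (ρ : X →* G), Cfsg.IsStemExtension ρ → ∃ π : A →* ρ.ker, Function.Surjective π)
    {σ : Γ →* G} {τ : L →* G} (hσ : Cfsg.IsStemExtension σ) (e : σ.ker ≃* A)
    (hτ : Function.Surjective τ) (hτc : τ.ker ≤ center L)
    (hΓ : ⁅(⊤ : Subgroup Γ), (⊤ : Subgroup Γ)⁆ = ⊤) (hL : ⁅(⊤ : Subgroup L), (⊤ : Subgroup L)⁆ = ⊤) :
    ∃ π : Γ →* L, Function.Surjective π ∧ ∀ x, τ (π x) = σ x := by
  have hst := rhoD_stem hσ.1 hσ.2.1 hτ hτc hΓ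
  obtain ⟨π₀, hπ₀⟩ := hS _ _ hst
  have hcard1 : Nat.card (rhoD σ τ).ker ≤ Nat.card A := Nat.card_le_card_of_surjective _ hπ₀
  have hcard2 : Nat.card σ.ker = Nat.card A := Nat.card_congr e.toEquiv
  have h3 := card_eq_of_surj (rhoD σ τ) hst.1
  have h4 := card_eq_of_surj σ hσ.1
  let f₁ : ↥(dr σ τ) →* Γ := (MonoidHom.fst Γ L).comp (dr σ τ).subtype
  let f₂ : ↥(dr σ τ) →* L := (MonoidHom.snd Γ L).comp (dr σ τ).subtype
  have hf₁ : Function.Surjective f₁ := by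
    intro x
    have hx : x ∈ (dr σ τ).map (MonoidHom.fst Γ L) := by rw [map_fst_dr hτ hΓ]; trivial
    obtain ⟨d, hd, hd1⟩ := hx
    exact ⟨⟨d, hd⟩, hd1⟩
  have hf₂ : Function.Surjective f₂ := by
    intro x
    have hx : x ∈ (dr σ τ).map (MonoidHom.snd Γ L) := by rw [map_snd_dr hσ.1 hL]; trivial
    obtain ⟨d, hd, hd1⟩ := hx
    exact ⟨⟨d, hd⟩, hd1⟩
  have hle : Nat.card ↥(dr σ τ) ≤ Nat.card Γ := by
    rw [h3, h4, hcard2]
    exact Nat.mul_le_mul_right _ hcard1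
  have hbij : Function.Bijective f₁ := hf₁.bijective_of_nat_card_le hle
  let E : ↥(dr σ τ) ≃* Γ := MulEquiv.ofBijective f₁ hbij
  refine ⟨f₂.comp E.symm.toMonoidHom, ?_, ?_⟩
  · exact hf₂.comp E.symm.surjective
  · intro x
    have h5 := mem_pb.mp (dr_le σ τ (E.symm x).2)
    have h6 : (E.symm x).1.1 = x := E.apply_symm_apply x
    show τ (E.symm x).1.2 = σ x
    rw [← h5, h6]

/-- The kernel is determined by the squares. -/
theorem ker_eq_of_squares {A X : Type} [CommGroup A] [Group X] [Finite A] [Finite Γ] [Finite X] [Finite G]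
    {σ : Γ →* G} {τ : X →* G} {π : Γ →* X} (hσ : Function.Surjective σ) (e : σ.ker ≃* A) (hπ : Function.Surjective π)
    (hc : ∀ x, τ (π x) = σ x) (hτs : Function.Surjective τ)
    (hτ2 : ∀ x ∈ τ.ker, x * x = 1) (hτ4 : Nat.card τ.ker = 4)
    (hA : Nat.card A = 48) (hS : Nat.card (powMonoidHom 2 : A →* A).range = 12) :
    π.ker = ((powMonoidHom 2 : A →* A).range).map (σ.ker.subtype.comp e.symm.toMonoidHom) := by
  symm
  apply Subgroup.eq_of_le_of_card_ge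
  · rintro _ ⟨_, ⟨a, rfl⟩, rfl⟩
    set b : Γ := ((e.symm a : σ.ker) : Γ) with hb
    have hb1 : σ b = 1 := (e.symm a).2
    have hb2 : π b ∈ τ.ker := by
      rw [MonoidHom.mem_ker, hc, hb1]
    have h3 : (σ.ker.subtype.comp e.symm.toMonoidHom) ((powMonoidHom 2 : A →* A) a) = b * b := by
      simp [hb, pow_two]
    rw [h3, MonoidHom.mem_ker, map_mul]
    exact hτ2 _ hb2
  · have hinj : Function.Injective (σ.ker.subtype.comp e.symm.toMonoidHom) :=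
      (σ.ker.subtype_injective).comp e.symm.injective
    rw [Nat.card_congr (Subgroup.equivMapOfInjective _ _ hinj).toEquiv.symm, hS]
    have h1 := card_eq_of_surj σ hσ
    have h2 := card_eq_of_surj π hπ
    have h3 := card_eq_of_surj τ hτs
    have h4 : Nat.card σ.ker = 48 := by rw [Nat.card_congr e.toEquiv, hA]
    have hG : 0 < Nat.card G := Nat.card_pos
    rw [h4] at h1
    rw [h3, hτ4] at h2
    have h5 : Nat.card π.ker * 4 * Nat.card G = 48 * Nat.card G := by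
      rw [← h1, h2]
      ring
    have h6 := Nat.eq_of_mul_eq_mul_right hG h5
    omega

/-- Uniqueness for a group with stem extensions with the same data. -/
theorem unique_cover {A L₁ L₂ : Type} [CommGroup A] [Finite A] [Group L₁] [Group L₂] [Finite L₁] [Finite L₂] [Finite G]
    (hS : ∀ (X : Type) [Group X] [Finite X] (ρ : X →* G), Cfsg.IsStemExtension ρ → ∃ π : A →* ρ.ker, Function.Surjective π)
    (hE : ∃ (Γ : Type) (_ : Group Γ) (_ : Finite Γ) (σ : Γ →* G), Cfsg.IsStemExtension σ ∧ Nonempty (σ.ker ≃* A))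
    (hA : Nat.card A = 48) (hS2 : Nat.card (powMonoidHom 2 : A →* A).range = 12)
    (hG : ⁅(⊤ : Subgroup G), (⊤ : Subgroup G)⁆ = ⊤)
    {τ₁ : L₁ →* G} {τ₂ : L₂ →* G}
    (h₁ : Function.Surjective τ₁) (h₂ : Function.Surjective τ₂)
    (hc₁ : τ₁.ker ≤ center L₁) (hc₂ : τ₂.ker ≤ center L₂)
    (hp₁ : ⁅(⊤ : Subgroup L₁), (⊤ : Subgroup L₁)⁆ = ⊤) (hp₂ : ⁅(⊤ : Subgroup L₂), (⊤ : Subgroup L₂)⁆ = ⊤)
    (he₁ : ∀ x ∈ τ₁.ker, x * x = 1) (he₂ : ∀ x ∈ τ₂.ker, x * x = 1)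
    (hf₁ : Nat.card τ₁.ker = 4) (hf₂ : Nat.card τ₂.ker = 4) :
    Nonempty (L₁ ≃* L₂) := by
  obtain ⟨Γ₀, _, _, σ, hσ, ⟨e⟩⟩ := hE
  have hΓ : ⁅(⊤ : Subgroup Γ₀), (⊤ : Subgroup Γ₀)⁆ = ⊤ := by
    rw [eq_top_iff]
    intro x _
    have h0 : (⊤ : Subgroup Γ₀).map σ = ⊤ := by
      rw [← MonoidHom.range_eq_map]
      exact MonoidHom.range_eq_top.mpr hσ.1
    have h1 : σ x ∈ ⁅(⊤ : Subgroup Γ₀), (⊤ : Subgroup Γ₀)⁆.map σ := by
      rw [map_commutator, h0, hG]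
      trivial
    obtain ⟨y, hy, hy1⟩ := h1
    have h2 : y⁻¹ * x ∈ σ.ker := by
      rw [MonoidHom.mem_ker, map_mul, map_inv, hy1, inv_mul_cancel]
    have h3 : y⁻¹ * x ∈ ⁅(⊤ : Subgroup Γ₀), (⊤ : Subgroup Γ₀)⁆ := hσ.2.2 h2
    have h4 : x = y * (y⁻¹ * x) := by group
    rw [h4]
    exact mul_mem hy h3
  obtain ⟨π₁, hπ₁, hc₁'⟩ := exists_cover hS hσ e h₁ hc₁ hΓ hp₁
  obtain ⟨π₂, hπ₂, hc₂'⟩ := exists_cover hS hσ e h₂ hc₂ hΓ hp₂
  have k₁ := ker_eq_of_squares hσ.1 e hπ₁ hc₁' h₁ he₁ hf₁ hA hS2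
  have k₂ := ker_eq_of_squares hσ.1 e hπ₂ hc₂' h₂ he₂ hf₂ hA hS2
  exact ⟨(QuotientGroup.quotientKerEquivOfSurjective π₁ hπ₁).symm.trans
    ((QuotientGroup.quotientMulEquivOfEq (k₁.trans k₂.symm)).trans
      (QuotientGroup.quotientKerEquivOfSurjective π₂ hπ₂))⟩

universe u v

/-- A copy of a finite group in the lowest universe. -/
theorem down (L : Type u) [Group L] [Finite L] : ∃ (X : Type) (_ : Group X) (_ : Finite X), Nonempty (X ≃* L) := by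
  obtain ⟨n, ⟨e⟩⟩ := Finite.exists_equiv_fin L
  letI : Group (Fin n) := e.symm.group
  exact ⟨Fin n, inferInstance, inferInstance, ⟨e.symm.mulEquiv⟩⟩

/-- The multiplier as a type. -/
abbrev AA : Type := Multiplicative (ZMod 3 × ZMod 4 × ZMod 4)

theorem card_A : Nat.card AA = 48 := by
  rw [Nat.card_eq_fintype_card]
  decide +kernel

theorem card_sq : Nat.card (powMonoidHom 2 : AA →* AA).range = 12 := by
  have h1 : Nat.card (powMonoidHom 2 : AA →* AA).range = Nat.card {a : AA // ∃ b : AA, b ^ 2 = a} :=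
    Nat.card_congr (Equiv.subtypeEquivRight (fun a => Iff.rfl))
  rw [h1, Nat.card_eq_fintype_card]
  decide +kernel

theorem perfect_G {L G : Type*} [Group L] [Group G] {τ : L →* G} (hτ : Function.Surjective τ)
    (hL : ⁅(⊤ : Subgroup L), (⊤ : Subgroup L)⁆ = ⊤) : ⁅(⊤ : Subgroup G), (⊤ : Subgroup G)⁆ = ⊤ := by
  have h0 : (⊤ : Subgroup L).map τ = ⊤ := by
    rw [← MonoidHom.range_eq_map]
    exact MonoidHom.range_eq_top.mpr hτ
  have := map_commutator (⊤ : Subgroup L) (⊤ : Subgroup L) τ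
  rw [hL, h0] at this
  exact this.symm

section Transfer

variable {Q : Type u} [Group Q] {X : Type} [Group X]

/-- The map from a copy of a group to its central quotient. -/
def tauX {G : Type} [Group G] (i : X ≃* Q) (e : Q ⧸ center Q ≃* G) : X →* G :=
  e.toMonoidHom.comp ((QuotientGroup.mk' (center Q)).comp i.toMonoidHom)

theorem tauX_surj {G : Type} [Group G] (i : X ≃* Q) (e : Q ⧸ center Q ≃* G) : Function.Surjective (tauX i e) := by
  intro g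
  obtain ⟨q, hq⟩ := QuotientGroup.mk'_surjective (center Q) (e.symm g)
  refine ⟨i.symm q, ?_⟩
  show e (QuotientGroup.mk' (center Q) (i (i.symm q))) = g
  rw [i.apply_symm_apply, hq, e.apply_symm_apply]

theorem mem_ker_tauX {G : Type} [Group G] (i : X ≃* Q) (e : Q ⧸ center Q ≃* G) (x : X) :
    x ∈ (tauX i e).ker ↔ i x ∈ center Q := by
  rw [MonoidHom.mem_ker]
  show e (QuotientGroup.mk' (center Q) (i x)) = 1 ↔ _
  rw [map_eq_one_iff e e.injective]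
  exact QuotientGroup.eq_one_iff _

theorem ker_tauX_le {G : Type} [Group G] (i : X ≃* Q) (e : Q ⧸ center Q ≃* G) : (tauX i e).ker ≤ center X := by
  intro x hx
  rw [mem_ker_tauX] at hx
  rw [mem_center_iff]
  intro y
  apply i.injective
  rw [map_mul, map_mul]
  exact mem_center_iff.mp hx _

theorem perfect_X (i : X ≃* Q) (h : Group.IsPerfect Q) : ⁅(⊤ : Subgroup X), (⊤ : Subgroup X)⁆ = ⊤ := by
  have h1 : ⁅(⊤ : Subgroup Q), (⊤ : Subgroup Q)⁆ = ⊤ := h.commutator_eq_top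
  exact perfect_G (τ := i.symm.toMonoidHom) i.symm.surjective h1

theorem sq_ker {G : Type} [Group G] (i : X ≃* Q) (e : Q ⧸ center Q ≃* G) (he : ∀ x ∈ center Q, x * x = 1) :
    ∀ x ∈ (tauX i e).ker, x * x = 1 := by
  intro x hx
  rw [mem_ker_tauX] at hx
  apply i.injective
  rw [map_mul, map_one]
  exact he _ hx

theorem card_ker {G : Type} [Group G] (i : X ≃* Q) (e : Q ⧸ center Q ≃* G) (hc : Nat.card (center Q) = 4) :
    Nat.card (tauX i e).ker = 4 := by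
  rw [← hc]
  exact Nat.card_congr (i.toEquiv.subtypeEquiv (fun x => mem_ker_tauX i e x))

end Transfer

/-- The main uniqueness statement. -/
theorem main {Q₁ : Type u} {Q₂ : Type v} [Group Q₁] [Group Q₂] {X₁ X₂ G : Type} [Group X₁] [Group X₂] [Group G]
    [Finite X₁] [Finite X₂]
    (hS : ∀ (X : Type) [Group X] [Finite X] (ρ : X →* G), Cfsg.IsStemExtension ρ → ∃ π : AA →* ρ.ker, Function.Surjective π)
    (hE : ∃ (Γ : Type) (_ : Group Γ) (_ : Finite Γ) (σ : Γ →* G), Cfsg.IsStemExtension σ ∧ Nonempty (σ.ker ≃* AA))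
    (hA : Nat.card AA = 48) (hS2 : Nat.card (powMonoidHom 2 : AA →* AA).range = 12)
    (i₁ : X₁ ≃* Q₁) (i₂ : X₂ ≃* Q₂) (p₁ : Group.IsPerfect Q₁) (p₂ : Group.IsPerfect Q₂)
    (hc₁ : Nat.card (center Q₁) = 4) (hc₂ : Nat.card (center Q₂) = 4)
    (he₁ : ∀ x ∈ center Q₁, x * x = 1) (he₂ : ∀ x ∈ center Q₂, x * x = 1)
    (e₁ : Q₁ ⧸ center Q₁ ≃* G) (e₂ : Q₂ ⧸ center Q₂ ≃* G) : Nonempty (X₁ ≃* X₂) := by
  have : Finite G := Finite.of_surjective _ (tauX_surj i₁ e₁)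
  exact unique_cover hS hE hA hS2 (perfect_G (tauX_surj i₁ e₁) (perfect_X i₁ p₁)) (tauX_surj i₁ e₁) (tauX_surj i₂ e₂)
    (ker_tauX_le i₁ e₁) (ker_tauX_le i₂ e₂) (perfect_X i₁ p₁) (perfect_X i₂ p₂)
    (sq_ker i₁ e₁ he₁) (sq_ker i₂ e₂ he₂) (card_ker i₁ e₁ hc₁) (card_ker i₂ e₂ hc₂)

end Cfsg.Agent.Lib.Psl34.Cover
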