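import Mathlib
import Cfsg.Agent.Lib.Psl34.Basic
import Cfsg.Agent.Lib.Classical.SLVec
import Cfsg.Agent.S2569

/-! `PSL₃(4)`: all elements of order three are conjugate to the image of `diag(1, ω, ω²)`. -/

set_option autoImplicit false

namespace Cfsg.Agent.Lib.Psl34

open Matrix Polynomial

variable {K : Type*} [Field K] [Fintype K]

theorem charP_two (hK : Fintype.card K = 4) : CharP K 2 := by
  obtain ⟨p, hp⟩ := CharP.exists K
  haveI := hp
  obtain ⟨m, hprime, hpm⟩ := FiniteField.card K p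
  have h1 : p ∣ 4 := by
    rw [← hK, hpm]
    exact dvd_pow_self p m.ne_zero
  have h3 : p ∣ 2 ^ 2 := by simpa using h1
  have h2 := (Nat.prime_dvd_prime_iff_eq hprime Nat.prime_two).1 (hprime.dvd_of_dvd_pow h3)
  rwa [h2] at hp

/-- Determinant of `a + (b - a) E` for a rank one idempotent `E`. -/
theorem det_of_rank_one_idem (a b : K) (ha : a ≠ 0) (E : Matrix (Fin 3) (Fin 3) K) (hE : E * E = E)
    (hr : E.rank = 1) : (a • (1 : Matrix (Fin 3) (Fin 3) K) + (b - a) • E).det = a ^ 2 * b := by
  classical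
  obtain ⟨p, q, hp, hq, rfl⟩ := Cfsg.Agent.Lib.Classical.exists_vecMulVec_of_rank_one hr
  obtain ⟨i, hi⟩ : ∃ i, q i ≠ 0 := by
    by_contra hcon
    push Not at hcon
    exact hq (funext hcon)
  obtain ⟨k, hk⟩ : ∃ k, p k ≠ 0 := by
    by_contra hcon
    push Not at hcon
    exact hp (funext hcon)
  have hqp : q ⬝ᵥ p = 1 := by
    have h1 := congrFun (congrFun hE k) i
    simp only [Matrix.mul_apply, Matrix.vecMulVec_apply] at h1
    have h2 : ∑ x, p k * q x * (p x * q i) = p k * q i * (q ⬝ᵥ p) := by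
      simp only [dotProduct, Finset.mul_sum]
      apply Finset.sum_congr rfl
      intro x _
      ring
    rw [h2] at h1
    have h3 : p k * q i * (q ⬝ᵥ p - 1) = 0 := by linear_combination h1
    exact sub_eq_zero.1 ((mul_eq_zero.1 h3).resolve_left (mul_ne_zero hk hi))
  set c := (b - a) / a with hc
  have hac : a * c = b - a := by rw [hc]; field_simp
  have h1 : a • (1 : Matrix (Fin 3) (Fin 3) K) + (b - a) • vecMulVec p q = a • (1 + vecMulVec (c • p) q) := by
    ext x y
    simp only [Matrix.add_apply, Matrix.smul_apply, smul_eq_mul, Matrix.vecMulVec_apply, Pi.smul_apply, mul_add, ← hac]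
    ring
  rw [h1, Matrix.det_smul, Fintype.card_fin, Matrix.vecMulVec_eq Unit, Matrix.det_one_add_replicateCol_mul_replicateRow]
  have h2 : q ⬝ᵥ (c • p) = c := by
    rw [dotProduct_smul, hqp, smul_eq_mul, mul_one]
  rw [h2]
  field_simp
  rw [hc]
  field_simp
  ring

/-- A non-scalar matrix with a quadratic relation `(g - a)(g - b) = 0`, `a ≠ b` cube roots of one, has determinant `≠ 1`. -/
theorem det_ne_one_of_quadratic (hK : Fintype.card K = 4) (g : Matrix (Fin 3) (Fin 3) K) {a b : K} (hab : a ≠ b)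
    (ha : a ≠ 0) (hb : b ≠ 0) (hq : (g - a • 1) * (g - b • 1) = 0) (hg : ¬ ∃ l : K, g = l • 1) : g.det ≠ 1 := by
  classical
  have ha3 := pow_three_eq_one hK ha
  have hb3 := pow_three_eq_one hK hb
  have hsub : a - b ≠ 0 := sub_ne_zero.2 hab
  set E := (a - b)⁻¹ • (g - b • 1) with hE
  have hgE : g = b • 1 + (a - b) • E := by
    rw [hE, smul_smul, mul_inv_cancel₀ hsub, one_smul]
    abel
  have hgE' : g = a • 1 + (b - a) • (1 - E) := by
    have h2 : (a - b) • E = g - b • 1 := by
      rw [hE, smul_smul, mul_inv_cancel₀ hsub, one_smul]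
    have h3 : (b - a) • E = -((a - b) • E) := by rw [← neg_smul, neg_sub]
    rw [smul_sub, h3, h2, sub_smul]
    abel
  have hEE : E * E = E := by
    have h1 : (g - b • 1) * (g - b • 1) = (a - b) • (g - b • 1) := by
      have h2 : g - b • 1 = (g - a • 1) + (a - b) • (1 : Matrix (Fin 3) (Fin 3) K) := by
        rw [sub_smul]
        abel
      calc (g - b • 1) * (g - b • 1) = ((g - a • 1) + (a - b) • 1) * (g - b • 1) := by rw [← h2]
        _ = (g - a • 1) * (g - b • 1) + (a - b) • (g - b • 1) := by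
            rw [add_mul, smul_mul_assoc, one_mul]
        _ = (a - b) • (g - b • 1) := by rw [hq, zero_add]
    rw [hE, smul_mul_smul_comm, h1, smul_smul]
    congr 1
    field_simp
  have hE0 : E ≠ 0 := by
    intro h0
    apply hg
    refine ⟨b, ?_⟩
    rw [hgE, h0, smul_zero, add_zero]
  have hE1 : 1 - E ≠ 0 := by
    intro h0
    apply hg
    refine ⟨a, ?_⟩
    rw [hgE', h0, smul_zero, add_zero]
  have hmul : E * (1 - E) = 0 := by rw [mul_sub, mul_one, hEE, sub_self]
  have hrank : E.rank + (1 - E).rank ≤ 3 := by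
    have := Matrix.rank_add_rank_le_card_of_mul_eq_zero hmul
    simpa using this
  have hpos : ∀ A : Matrix (Fin 3) (Fin 3) K, A ≠ 0 → A.rank ≠ 0 := by
    intro A hA h0
    apply hA
    have h3 : LinearMap.range A.mulVecLin = ⊥ := Submodule.finrank_eq_zero.1 h0
    have h4 : A.mulVecLin = 0 := LinearMap.range_eq_bot.1 h3
    ext p q
    have h5 := congrFun (LinearMap.congr_fun h4 (Pi.single q 1)) p
    simpa using h5
  have h1 := hpos _ hE0
  have h2 := hpos _ hE1
  have hcases : E.rank = 1 ∨ (1 - E).rank = 1 := by omega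
  intro hdet
  rcases hcases with h | h
  · have h3 := det_of_rank_one_idem b a hb E hEE h
    rw [← hgE, hdet] at h3
    -- `1 = b^2 a`
    apply hab
    have h4 : b ^ 2 * (a - b) = 0 := by linear_combination -h3 - hb3
    exact sub_eq_zero.1 ((mul_eq_zero.1 h4).resolve_left (pow_ne_zero 2 hb))
  · have hE'E' : (1 - E) * (1 - E) = 1 - E := by
      rw [sub_mul, one_mul, mul_sub, mul_one, hEE]
      abel
    have h3 := det_of_rank_one_idem a b ha (1 - E) hE'E' h
    rw [← hgE', hdet] at h3
    apply hab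
    have h4 : a ^ 2 * (b - a) = 0 := by linear_combination -h3 - ha3
    exact (sub_eq_zero.1 ((mul_eq_zero.1 h4).resolve_left (pow_ne_zero 2 ha))).symm

/-- Expansion of a product of three linear factors. -/
theorem triple_product (g : Matrix (Fin 3) (Fin 3) K) (a b c : K) :
    (g - a • 1) * ((g - b • 1) * (g - c • 1)) =
      g * g * g - (a + b + c) • (g * g) + (a * b + a * c + b * c) • g - (a * b * c) • 1 := by
  simp only [sub_mul, mul_sub, smul_mul_assoc, mul_smul_comm, one_mul, mul_one, smul_sub, smul_smul, mul_assoc]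
  module

/-- An eigenvector from a product relation. -/
theorem exists_eigenvector (hK : Fintype.card K = 4) (g : Matrix (Fin 3) (Fin 3) K) {a b c : K} (hbc : b ≠ c)
    (hb : b ≠ 0) (hc : c ≠ 0) (hdet : g.det = 1) (hg : ¬ ∃ l : K, g = l • 1)
    (hrel : (g - a • 1) * ((g - b • 1) * (g - c • 1)) = 0) :
    ∃ v : Fin 3 → K, v ≠ 0 ∧ g.mulVec v = a • v := by
  have h1 : (g - b • 1) * (g - c • 1) ≠ 0 := fun h0 => det_ne_one_of_quadratic hK g hbc hb hc h0 hg hdet
  obtain ⟨u, hu⟩ : ∃ u : Fin 3 → K, ((g - b • 1) * (g - c • 1)).mulVec u ≠ 0 := by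
    by_contra hcon
    push Not at hcon
    apply h1
    ext i j
    have := congrFun (hcon (Pi.single j 1)) i
    simpa using this
  refine ⟨_, hu, ?_⟩
  have h2 := congrArg (fun A => A.mulVec u) hrel
  simp only [← Matrix.mulVec_mulVec, Matrix.zero_mulVec] at h2
  have h3 : (g - a • 1).mulVec (((g - b • 1) * (g - c • 1)).mulVec u) = 0 := by
    simpa [Matrix.mulVec_mulVec] using h2
  rw [Matrix.sub_mulVec, Matrix.smul_mulVec, Matrix.one_mulVec, sub_eq_zero] at h3
  exact h3

/-- The diagonal form of a non-scalar matrix with `g³ = 1`, `det g = 1`. -/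
theorem exists_diagonalisation (hK : Fintype.card K = 4) (g : Matrix (Fin 3) (Fin 3) K) {ω : K} (hω0 : ω ≠ 0)
    (hω1 : ω ≠ 1) (hg3 : g * g * g = 1) (hdet : g.det = 1) (hg : ¬ ∃ l : K, g = l • 1) :
    ∃ P : GL (Fin 3) K, (P : Matrix (Fin 3) (Fin 3) K) * Matrix.diagonal ![1, ω, ω ^ 2] = g * (P : Matrix (Fin 3) (Fin 3) K) := by
  classical
  have hω3 := pow_three_eq_one hK hω0
  have hsum : 1 + ω + ω ^ 2 = 0 := by
    have h1 : (ω - 1) * (1 + ω + ω ^ 2) = 0 := by linear_combination hω3
    exact (mul_eq_zero.1 h1).resolve_left (sub_ne_zero.2 hω1)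
  have hω2 : ω ^ 2 ≠ 1 := by
    intro h
    apply hω1
    have h1 : ω * ω ^ 2 = 1 := by linear_combination hω3
    rw [h, mul_one] at h1
    exact h1
  have hωω2 : ω ≠ ω ^ 2 := by
    intro h
    apply hω1
    have h1 : ω * (ω - 1) = 0 := by linear_combination -h
    exact sub_eq_zero.1 ((mul_eq_zero.1 h1).resolve_left hω0)
  have hω20 : ω ^ 2 ≠ 0 := pow_ne_zero 2 hω0
  have hrel : ∀ a b c : K, a + b + c = 0 → a * b + a * c + b * c = 0 → a * b * c = 1 →
      (g - a • 1) * ((g - b • 1) * (g - c • 1)) = 0 := by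
    intro a b c h1 h2 h3
    rw [triple_product, h1, h2, h3, hg3]
    simp
  obtain ⟨v₀, hv₀, hg₀⟩ := exists_eigenvector hK g (a := 1) hωω2 hω0 hω20 hdet hg
    (hrel _ _ _ (by linear_combination hsum) (by linear_combination hsum + hω3) (by linear_combination hω3))
  obtain ⟨v₁, hv₁, hg₁⟩ := exists_eigenvector hK g (a := ω) (b := 1) (c := ω ^ 2) hω2.symm one_ne_zero hω20 hdet hg
    (hrel _ _ _ (by linear_combination hsum) (by linear_combination hsum + hω3) (by linear_combination hω3))
  obtain ⟨v₂, hv₂, hg₂⟩ := exists_eigenvector hK g (a := ω ^ 2) (b := 1) (c := ω) hω1.symm one_ne_zero hω0 hdet hg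
    (hrel _ _ _ (by linear_combination hsum) (by linear_combination hsum + hω3) (by linear_combination hω3))
  let T : Module.End K (Fin 3 → K) := Matrix.toLin' g
  let μ : Fin 3 → K := ![1, ω, ω ^ 2]
  let v : Fin 3 → (Fin 3 → K) := ![v₀, v₁, v₂]
  have hμ : Function.Injective μ := by
    intro i j hij
    fin_cases i <;> fin_cases j
    · rfl
    · exact absurd (show (1 : K) = ω from hij).symm hω1
    · exact absurd (show (1 : K) = ω ^ 2 from hij).symm hω2
    · exact absurd (show ω = 1 from hij) hω1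
    · rfl
    · exact absurd (show ω = ω ^ 2 from hij) hωω2
    · exact absurd (show ω ^ 2 = 1 from hij) hω2
    · exact absurd (show ω ^ 2 = ω from hij).symm hωω2
    · rfl
  have hvec : ∀ i, g.mulVec (v i) = μ i • v i := by
    intro i
    fin_cases i
    · exact hg₀
    · exact hg₁
    · exact hg₂
  have hne : ∀ i, v i ≠ 0 := by
    intro i
    fin_cases i
    · exact hv₀
    · exact hv₁
    · exact hv₂
  have hind : LinearIndependent K v := by
    apply Module.End.eigenvectors_linearIndependent' T μ hμ v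
    intro i
    exact ⟨Module.End.mem_eigenspace_iff.2 (hvec i), hne i⟩
  let B : Module.Basis (Fin 3) K (Fin 3 → K) := basisOfLinearIndependentOfCardEqFinrank hind (by simp)
  have hB : ∀ j, B j = v j := fun j => by simp [B]
  let E := Pi.basisFun K (Fin 3)
  let P : GL (Fin 3) K := ⟨E.toMatrix B, B.toMatrix E, E.toMatrix_mul_toMatrix_flip B, B.toMatrix_mul_toMatrix_flip E⟩
  refine ⟨P, ?_⟩
  have hP : ∀ i j, (P : Matrix (Fin 3) (Fin 3) K) i j = v j i := by
    intro i j
    show E.toMatrix B i j = _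
    rw [Module.Basis.toMatrix_apply, hB]
    simp [E]
  ext i j
  rw [show (![1, ω, ω ^ 2] : Fin 3 → K) = μ from rfl, Matrix.mul_diagonal, hP]
  have h1 : (g * (P : Matrix (Fin 3) (Fin 3) K)) i j = (g.mulVec (v j)) i := by
    simp only [Matrix.mul_apply, Matrix.mulVec, dotProduct, hP]
  rw [h1, hvec]
  simp [mul_comm]

/-- If `g³` is a non-trivial scalar, `det g = g³`. -/
theorem det_eq_of_pow_three (hK : Fintype.card K = 4) (g : Matrix (Fin 3) (Fin 3) K) {c : K} (hc0 : c ≠ 0) (hc1 : c ≠ 1)
    (hg : g * g * g = c • 1) : g.det = c := by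
  classical
  have hf : (X ^ 3 - C c : K[X]).Monic := monic_X_pow_sub_C c (by norm_num)
  have hdeg : (X ^ 3 - C c : K[X]).natDegree = 3 := natDegree_X_pow_sub_C
  have hroots : (X ^ 3 - C c : K[X]).roots = 0 := by
    rw [Multiset.eq_zero_iff_forall_notMem]
    intro a ha
    rw [mem_roots hf.ne_zero, IsRoot.def] at ha
    simp only [eval_sub, eval_pow, eval_X, eval_C] at ha
    have ha0 : a ≠ 0 := by
      rintro rfl
      rw [zero_pow (by norm_num), zero_sub, neg_eq_zero] at ha
      exact hc0 ha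
    have := pow_three_eq_one hK ha0
    rw [this] at ha
    exact hc1 (sub_eq_zero.1 ha).symm
  have hirr : Irreducible (X ^ 3 - C c : K[X]) :=
    (hf.irreducible_iff_roots_eq_zero_of_degree_le_three (by rw [hdeg]; norm_num) (by rw [hdeg])).2 hroots
  have haeval : aeval g (X ^ 3 - C c : K[X]) = 0 := by
    have h1 : g ^ 3 = c • 1 := by rw [← hg]; noncomm_ring
    simp only [map_sub, map_pow, aeval_X, aeval_C, h1]
    rw [Algebra.algebraMap_eq_smul_one, sub_self]
  have hmin : (X ^ 3 - C c : K[X]) = minpoly K g := minpoly.eq_of_irreducible_of_monic hirr haeval hf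
  have hdvd : (X ^ 3 - C c : K[X]) ∣ g.charpoly := by
    rw [hmin]
    exact Matrix.minpoly_dvd_charpoly g
  have hch : g.charpoly = X ^ 3 - C c := by
    apply Polynomial.eq_of_monic_of_dvd_of_natDegree_le hf (Matrix.charpoly_monic g) hdvd
    rw [Matrix.charpoly_natDegree_eq_dim, Fintype.card_fin, hdeg]
  rw [Matrix.det_eq_sign_charpoly_coeff, hch]
  simp [coeff_X_pow]
  ring

/-- Every element of order three of `PSL₃(4)` is conjugate to the image of `D = diag(1, ω, ω²)`. -/
theorem exists_conj_std (hK : Fintype.card K = 4) {ω : K} (hω0 : ω ≠ 0) (hω1 : ω ≠ 1)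
    (D : Matrix.SpecialLinearGroup (Fin 3) K) (hD : (D : Matrix (Fin 3) (Fin 3) K) = Matrix.diagonal ![1, ω, ω ^ 2])
    (x : Matrix.ProjectiveSpecialLinearGroup (Fin 3) K) (hx : orderOf x = 3) :
    ∃ t : Matrix.ProjectiveSpecialLinearGroup (Fin 3) K,
      x = t * (QuotientGroup.mk D : Matrix.ProjectiveSpecialLinearGroup (Fin 3) K) * t⁻¹ := by
  classical
  haveI : Fact (Nat.Prime 2) := ⟨Nat.prime_two⟩
  haveI : CharP K 2 := charP_two hK
  have hω3 := pow_three_eq_one hK hω0
  obtain ⟨g, rfl⟩ := QuotientGroup.mk_surjective x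
  have hg3 : g ^ 3 ∈ Subgroup.center (Matrix.SpecialLinearGroup (Fin 3) K) := by
    apply (QuotientGroup.eq_one_iff _).1
    have h0 := pow_orderOf_eq_one (QuotientGroup.mk g : Matrix.ProjectiveSpecialLinearGroup (Fin 3) K)
    rw [hx] at h0
    rw [QuotientGroup.mk_pow]
    exact h0
  obtain ⟨c, hc3, hc⟩ := Matrix.SpecialLinearGroup.mem_center_iff.1 hg3
  have hc3' : c ^ 3 = 1 := by simpa using hc3
  have hc0 : c ≠ 0 := by
    rintro rfl
    simp at hc3'
  set G : Matrix (Fin 3) (Fin 3) K := (g : Matrix (Fin 3) (Fin 3) K) with hG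
  have hG3 : G * G * G = c • 1 := by
    have h1 : G * G * G = ((g ^ 3 : Matrix.SpecialLinearGroup (Fin 3) K) : Matrix (Fin 3) (Fin 3) K) := by
      rw [Matrix.SpecialLinearGroup.coe_pow]
      noncomm_ring
    rw [h1, ← hc]
    ext i j
    simp [Matrix.scalar_apply, Matrix.smul_apply, Matrix.one_apply, Matrix.diagonal_apply]
  have hdet : G.det = 1 := g.2
  have hc1 : c = 1 := by
    by_contra hne
    have := det_eq_of_pow_three hK G hc0 hne hG3
    rw [hdet] at this
    exact hne this.symm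
  rw [hc1, one_smul] at hG3
  have hnsc : ¬ ∃ l : K, G = l • 1 := by
    rintro ⟨l, hl⟩
    have h1 : g ∈ Subgroup.center (Matrix.SpecialLinearGroup (Fin 3) K) := by
      rw [Matrix.SpecialLinearGroup.mem_center_iff]
      refine ⟨l, ?_, ?_⟩
      · have h4 := hdet
        rw [hl, Matrix.det_smul, Matrix.det_one, mul_one] at h4
        simpa using h4
      · show _ = G
        rw [hl]
        ext i j
        simp [Matrix.scalar_apply, Matrix.smul_apply, Matrix.one_apply, Matrix.diagonal_apply]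
    have h2 : (QuotientGroup.mk g : Matrix.ProjectiveSpecialLinearGroup (Fin 3) K) = 1 :=
      (QuotientGroup.eq_one_iff _).2 h1
    rw [h2, orderOf_one] at hx
    omega
  obtain ⟨P, hP⟩ := exists_diagonalisation hK G hω0 hω1 hG3 hdet hnsc
  -- `D` as an element of `GL`
  let Dg : GL (Fin 3) K := Matrix.SpecialLinearGroup.toGL D
  have hDg : (Dg : Matrix (Fin 3) (Fin 3) K) = Matrix.diagonal ![1, ω, ω ^ 2] := hD
  have hDo : (orderOf Dg).Coprime 2 := by
    have h3 : Dg ^ 3 = 1 := by
      apply Units.ext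
      rw [Units.val_pow_eq_pow_val, hDg, Matrix.diagonal_pow]
      ext i j
      fin_cases i <;> fin_cases j <;> simp [hω3, ← pow_mul]
      · calc ω ^ 6 = (ω ^ 3) ^ 2 := by ring
          _ = 1 := by rw [hω3, one_pow]
    have h4 := orderOf_dvd_of_pow_eq_one h3
    have h5 : Nat.Coprime 3 2 := by norm_num
    exact Nat.Coprime.coprime_dvd_left h4 h5
  obtain ⟨h, hhdet, hh⟩ := Cfsg.Agent.S2569.result Dg P hDo
  -- `h` of determinant one
  let h' : Matrix.SpecialLinearGroup (Fin 3) K := ⟨h, hhdet⟩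
  have hconj : h' * D * h'⁻¹ = g := by
    have h1 : Matrix.SpecialLinearGroup.toGL (h' * D * h'⁻¹) = Matrix.SpecialLinearGroup.toGL g := by
      have h2 : Matrix.SpecialLinearGroup.toGL h' = h := Units.ext rfl
      rw [map_mul, map_mul, map_inv, h2]
      show h * Dg * h⁻¹ = _
      rw [hh]
      apply Units.ext
      rw [Units.val_mul, Units.val_mul, hDg, hP, mul_assoc, ← Units.val_mul, mul_inv_cancel]
      show G * 1 = G
      rw [mul_one]
    exact Matrix.SpecialLinearGroup.toGL_injective h1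
  refine ⟨QuotientGroup.mk h', ?_⟩
  rw [← hconj]
  rfl

end Cfsg.Agent.Lib.Psl34
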